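import Cfsg.Agent.Mult.Slices
import Cfsg.Agent.S62C.Base
import Cfsg.Agent.S62C.Tabs
import Cfsg.Agent.S62C.Pres

set_option autoImplicit false
set_option Elab.async false
set_option maxRecDepth 100000
set_option linter.all false

namespace Cfsg.Agent.S62C
open Cfsg.Agent.CGT

open Cfsg.Agent.Mult

noncomputable def Ws : List (List ℕ) := [[6, 7, 8, 9, 2, 4, 1, 3, 0, 5, 0], [7, 8], [6, 3, 5, 7, 3, 6], [7, 4, 8, 5, 6, 4, 7], [3, 6, 8, 1, 8, 3, 0, 5, 0], [1, 6, 5, 1, 5]]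
noncomputable def Us : List (List ℕ) := [[2, 0, 6, 2, 10, 2, 6, 0, 2], [6, 8, 2, 0, 2, 6, 10, 0, 6, 0, 2, 10, 4], [8, 4, 6, 8, 2, 0, 2, 10, 0, 2, 10, 6, 10], [10, 4, 8, 0, 2, 0, 8, 4, 6, 10], [4, 0, 10, 6, 2, 6, 2, 0, 4, 6, 0], [8, 2, 8, 2, 4, 8, 2, 8, 4], [4, 10, 2, 10, 4], [6, 10, 2, 10, 6], [2, 6, 10, 2, 10, 6], [4, 10, 2, 10, 6, 2, 6, 4]]
noncomputable def Rs : List Pl := [[(0x3e, 0), (0x3d, 0), (0x3b, 0), (0x37, 0), (0x2f, 0), (0x1f, 0)],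
  [(0x3e, 0), (0x3d, 0), (0x3b, 0), (0x37, 0), (0x2f, 0), (0x1f, 0)],
  [(0x23, 0), (2, 0), (0xc, 0), (8, 0), (0x18, 0), (0x20, 0)],
  [(0x23, 0), (2, 0), (0xc, 0), (8, 0), (0x18, 0), (0x20, 0)],
  [(1, 0), (2, 0), (6, 0), (8, 0), (0x32, 0), (0x20, 0)],
  [(1, 0), (2, 0), (6, 0), (8, 0), (0x32, 0), (0x20, 0)],
  [(1, 0), (6, 0), (4, 0), (8, 0), (0x14, 0), (0x32, 0)],
  [(1, 0), (6, 0), (4, 0), (8, 0), (0x14, 0), (0x32, 0)],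
  [(1, 0), (0x10, 0), (4, 0), (8, 0), (2, 0), (0x20, 0)],
  [(1, 0), (0x10, 0), (4, 0), (8, 0), (2, 0), (0x20, 0)],
  [(1, 0), (0x12, 0), (4, 0), (8, 0), (0x10, 0), (0x20, 0)],
  [(1, 0), (0x12, 0), (4, 0), (8, 0), (0x10, 0), (0x20, 0)]]
noncomputable def Ts0 : List ((ZMod 2) × Pl) := [(1, [(1, 0), (2, 0), (4, 0), (8, 0), (0x10, 0), (0x20, 0)])]
noncomputable def Ts : List Pl := Ts0.map Prod.snd
noncomputable def Ps : Pl := [(0x7fffffff80000000, 0), (0x7fff80007fff8000, 0), (0x7f807f807f807f80, 0), (0x7878787878787878, 0), (0x6666666666666666, 0), (0x5555555555555555, 0)]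

end Cfsg.Agent.S62C
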