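import Cfsg.Agent.Mult.Slices
import Cfsg.Agent.S62C.CertT0
import Cfsg.Agent.S62C.CertT1

set_option autoImplicit false
set_option Elab.async false
set_option maxRecDepth 100000
set_option linter.all false

namespace Cfsg.Agent.S62C
open Cfsg.Agent.CGT

open Cfsg.Agent.Mult

noncomputable def c_l0 : Level := ⟨31, [[0], [2], [4], [6], [8], [10]], [0, 1, 2, 3, 4, 1, 0, 2, 3, 5, 1, 3], 0x7fffffffffffffff, 63⟩
noncomputable def c_l1 : Level := ⟨3, [[2], [4], [6], [8], [10]], [0, 2, 3, 0, 1, 4, 0, 1, 2, 0], 0x7878787878787878, 32⟩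
noncomputable def c_l2 : Level := ⟨0, [[4], [6], [8], [10]], [0, 1, 2, 0, 3, 0, 1], 0x7878787, 15⟩
noncomputable def c_l3 : Level := ⟨7, [[6], [8], [10]], [0, 2, 0, 1, 2, 0], 0x7800780, 8⟩
noncomputable def c_l4 : Level := ⟨15, [[8], [10]], [0, 1], 0x28002, 3⟩
noncomputable def c_l5 : Level := ⟨1, [[10]], [0], 0x20002, 2⟩
noncomputable def c_ls : List Level := [c_l0, c_l1, c_l2, c_l3, c_l4, c_l5]
theorem c_l0_ok : (ptsOK 6 [] && (wordsIn [0, 2, 4, 6, 8, 10] c_l0.S && c_l0.ok 6 m_ns m_ts [])) = true := by decide +kernel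
theorem c_l1_ok : (ptsOK 6 [31] && (wordsIn [0, 2, 4, 6, 8, 10] c_l1.S && c_l1.ok 6 m_ns m_ts [31])) = true := by decide +kernel
theorem c_l2_ok : (ptsOK 6 [3, 31] && (wordsIn [0, 2, 4, 6, 8, 10] c_l2.S && c_l2.ok 6 m_ns m_ts [3, 31])) = true := by decide +kernel
theorem c_l3_ok : (ptsOK 6 [0, 3, 31] && (wordsIn [0, 2, 4, 6, 8, 10] c_l3.S && c_l3.ok 6 m_ns m_ts [0, 3, 31])) = true := by decide +kernel
theorem c_l4_ok : (ptsOK 6 [7, 0, 3, 31] && (wordsIn [0, 2, 4, 6, 8, 10] c_l4.S && c_l4.ok 6 m_ns m_ts [7, 0, 3, 31])) = true := by decide +kernel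
theorem c_l5_ok : (ptsOK 6 [15, 7, 0, 3, 31] && (wordsIn [0, 2, 4, 6, 8, 10] c_l5.S && c_l5.ok 6 m_ns m_ts [15, 7, 0, 3, 31])) = true := by decide +kernel
theorem c_sound {G : Type*} [Group G] {φ : G →* Equiv.Perm ℕ} {γ : ℕ → G}
    (M : Model φ γ 6 m_ns m_ts) : ChainSound φ (gp γ [0, 2, 4, 6, 8, 10]) 6 [] c_ls :=
  ⟨Level.ok_sound' M c_l0_ok,
   Level.ok_sound' M c_l1_ok,
   Level.ok_sound' M c_l2_ok,
   Level.ok_sound' M c_l3_ok,
   Level.ok_sound' M c_l4_ok,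
   Level.ok_sound' M c_l5_ok, trivial⟩
theorem cert {F : Type*} [Field F] [Fintype F] (hF : Fintype.card F = 2) (ψ : ZMod 2 ≃+* F) :
    ∃ (γ : ℕ → Cfsg.PSp 3 F) (φ : _), CGT.Cert φ γ 6 m_ns m_ts [0, 2, 4, 6, 8, 10] c_ls ∧ Holds (ext γ) qRR :=
  Co.Base.cert (C := stdCo kf2 ix ψ.toRingHom) (sp_base ψ (by decide) h_base) h_der h_gen (scal_std h_sc) h_len
    (uniq_two hF h_len h_red) m_v h_fix (by decide +kernel)
    (fun j hj => by
    change j < 6 at hj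
    interval_cases j
    exacts [h_a0, h_a1, h_a2, h_a3, h_a4, h_a5]) m_ts_ok (fun _ _ M => c_sound M) (allL_iff.1 h_r0) (fun _ h => qbd0 h) (by decide +kernel)

end Cfsg.Agent.S62C
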