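import Cfsg.Agent.Mult.Slices
import Cfsg.Agent.S62C.Tabs

set_option autoImplicit false
set_option Elab.async false
set_option maxRecDepth 100000
set_option linter.all false

namespace Cfsg.Agent.S62C
open Cfsg.Agent.CGT

open Cfsg.Agent.Mult

noncomputable def u2_D : PC := ⟨2, 9, 2, 21,
  [[0, 0x104, 0x10, 0x440, 0x100, 0x400, 0x5000, 0x4000, 0x10000], [0, 0, 0x10, 0x1040, 0x100, 0x10400, 0x11000, 0x14000, 0x10000], [0, 0, 0, 0x4440, 0x100, 0x400, 0x1000, 0x4000, 0x10000], [0, 0, 0, 0, 0x4100, 0x400, 0x11000, 0x4000, 0x10000], [0, 0, 0, 0, 0, 0x400, 0x11000, 0x4000, 0x10000], [0, 0, 0, 0, 0, 0, 0x1000, 0x4000, 0x10000], [0, 0, 0, 0, 0, 0, 0x10000, 0x4000, 0x10000], [0, 0, 0, 0, 0, 0, 0, 0, 0x10000], [0, 0, 0, 0, 0, 0, 0, 0, 0]],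
  [0xc33, 0xfcc, 3, 0x33, 0xc, 0, 0, 0, 0],
  [(9, 4, 0x110), (9, 0x10, 0x10), (9, 0x100, 0x114), (9, 0x400, 0x1100), (10, 1, 0x101), (10, 0x400, 0x10510), (10, 0x4000, 0x4100), (11, 1, 0x10100), (11, 0x40, 0x11510), (11, 0x100, 0x4001), (11, 0x400, 0x10000), (11, 0x1000, 0x10550), (11, 0x10000, 0x400)], 19, 0x40000050302070008000100000000060000⟩
noncomputable def u2_ds : List (List ℕ) := [[2, 6, 10, 2, 10, 2, 0, 10, 6, 2], [4, 8, 0, 2, 8, 0, 4, 6], [2, 6, 0, 10, 0, 6, 2], [10, 2, 8, 6, 0, 2, 6, 4, 2, 0, 10, 6], [8, 2, 0, 6, 10, 8, 10, 6, 2, 8], [2, 6, 0, 8, 2, 0, 6, 8, 2], [6, 4, 8, 10, 0, 6, 0, 10, 2, 10, 6], [6, 2, 10, 2, 6, 4, 2, 0, 4, 2], [10, 2, 8, 0, 10, 2, 4, 2, 0, 6, 10, 8, 4], [8, 6, 2, 6, 10, 0, 10, 6, 10, 2, 6], [0, 6, 4, 6, 2, 6, 2, 4, 6, 0], [4, 0, 2, 6, 2, 10, 2, 6, 0, 2]]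
noncomputable def u2_c : Mult.Cert := ⟨26, 18, [[], [], [], [], [1], [3], [12], [31], [16]],
  [([43], 1, 0xc0000000000000000000)],
  [[0x4804000111, 0, 0x280080141, 0, 0x80000101, 0x824000020, 0x22e04cee821, 0x11000001, 0x400040001], [0, 0xbc100e10a0, 0x100001400, 0, 0x100000101, 0x3610628821, 0xc04d04321, 0, 0x806000000], [0, 0, 0xbe100e01a1, 0x24c2422084e, 0x200000000, 0x3814020021, 0x3a14020821, 0x2000000000, 0x8000000000], [0, 0, 0, 0x3a10a20ba8, 0, 0x844000020, 0x20c04c14321, 0x18000001, 0x804800000], [0, 0, 0, 0, 0x101, 0x44000c0001, 0x20400c04000, 1, 0x4000000000], [0, 0, 0, 0, 0, 0x804000020, 0x20804a00000, 0x1000000000, 0x800000000], [0, 0, 0, 0, 0, 0, 0x400c04321, 0x20804c00000, 0x20000000000], [0, 0, 0, 0, 0, 0, 0, 0x10000001, 0x400000000], [0, 0, 0, 0, 0, 0, 0, 0, 0x804000000]]⟩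

end Cfsg.Agent.S62C
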