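import Cfsg.Agent.Mult.Slices
import Cfsg.Agent.S62C.Tabs

set_option autoImplicit false
set_option Elab.async false
set_option maxRecDepth 100000
set_option linter.all false

namespace Cfsg.Agent.S62C
open Cfsg.Agent.CGT

open Cfsg.Agent.Mult

noncomputable def u3_D : PC := ⟨3, 4, 2, 20,
  [[0, 0x14, 0x50, 0x40], [0, 0x40, 0x50, 0x40], [0, 0, 0, 0x40], [0, 0, 0, 0]],
  [0xf, 3, 0, 0],
  [(4, 1, 0xa2), (4, 4, 0x15), (4, 0x10, 0xa0), (4, 0x40, 0x40), (5, 1, 0x61), (5, 4, 0x5a), (5, 0x10, 0x20), (5, 0x40, 0x80)], 11, 0x2020103000100030000⟩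
noncomputable def u3_ds : List (List ℕ) := [[4, 2, 0, 2, 6, 2, 0, 4, 6, 2], [0, 2, 8, 10, 2, 4, 8, 2, 0, 6, 8, 2, 10, 8], [6, 0, 2, 10, 0, 6, 2, 6, 10, 4, 10, 4], [6, 2, 4, 0, 4, 8, 10, 2, 4, 6, 10, 8], [6, 0, 4, 0, 2, 6, 10], [6, 4, 2, 0, 6, 4, 6, 0, 4, 2, 6, 8]]
noncomputable def u3_c : Mult.Cert := ⟨70, 18, [[], [], [1], [2]],
  [],
  [[0x2c1f, 0, 0, 0x695d], [0, 0x9007, 0x36d8, 0x4ce3], [0, 0, 0xa8f6, 0x3342], [0, 0, 0, 0x1116]]⟩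

end Cfsg.Agent.S62C
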