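import Cfsg.Agent.Mult.Slices
import Cfsg.Agent.S62C.Mul3D

set_option autoImplicit false
set_option Elab.async false
set_option maxRecDepth 100000
set_option linter.all false

namespace Cfsg.Agent.S62C
open Cfsg.Agent.CGT

open Cfsg.Agent.Mult

set_option Elab.async false
theorem u3_all : allB u3_D u3_c [.assoc 4 8 4, .assoc 0x40 4 1, .assoc 0x20 0x10 1, .assoc 0x10 4 1, .assoc 4 2 1, .fus 4 [2, 0] [0, 2, 3], .fus 4 [2, 1] [1, 2, 3], .fus 4 [1, 1, 1] [3], .fus 5 [6, 4] [4, 6, 7], .fus 5 [5, 5, 5] [7]] 6 m_ts u3_ds [1, 15, 7, 0, 3, 31] [(8, [0x40, 4]), (2, [0x90]), (0, [0xa9])] = true := by decide +kernel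

end Cfsg.Agent.S62C
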