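import Cfsg.Agent.CGT.Act

set_option autoImplicit false
set_option Elab.async false
set_option maxRecDepth 100000
set_option linter.all false

namespace Cfsg.Agent.S62C
open Cfsg.Agent.CGT

noncomputable def qRR : List (List ℕ) := [[0, 0], [2, 2], [4, 4], [6, 6], [8, 8], [10, 10], [8, 10, 8, 10, 8, 10], [6, 8, 6, 8], [6, 10, 6, 10, 6, 10, 6, 10], [4, 8, 4, 10, 4, 8, 4, 10], [4, 6, 4, 6, 4, 6, 10, 6, 10], [10, 6, 10, 8, 4, 6, 10, 8, 10, 4, 6, 4, 8], [2, 4, 2, 4], [6, 2, 6, 10, 6, 2, 6, 10], [8, 2, 8, 10, 8, 2, 8, 10], [2, 6, 2, 8, 2, 6, 2, 8], [2, 6, 10, 2, 10, 8, 4, 6, 2, 6, 4, 6, 8], [0, 8, 0, 8], [2, 0, 2, 10, 2, 0, 2, 10], [0, 4, 6, 0, 6, 4, 0, 10], [6, 0, 6, 10, 6, 0, 6, 10], [4, 0, 4, 2, 8, 10, 0, 10, 8, 2], [0, 2, 0, 6, 0, 2, 0, 6, 0, 2, 0, 6]]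

end Cfsg.Agent.S62C
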